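import Cfsg.Agent.Lib.Helper77.NF3.Defs
import Cfsg.Agent.S0687

/-!
# NF3 package [FLD] (S0689): Schur + little Wedderburn
-/

set_option autoImplicit false

namespace Cfsg.Agent.Lib.Helper35.NF3

open Cfsg.Agent.Lib.Helper77.NF3

universe u

theorem pkgFld : PkgFld.{u} := by
  intro p _ V _ _ _ H hreg N hNn hNna
  classical
  have hVnt : Nontrivial V := by
    by_contra hnt
    rw [not_nontrivial_iff_subsingleton] at hnt
    apply hNna
    have h1 : Subsingleton (V ≃ₗ[ZMod p] V) :=
      ⟨fun x y => by ext v; exact Subsingleton.elim _ _⟩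
    exact ⟨⟨fun a b => Subsingleton.elim _ _⟩⟩
  let ρ : H → Module.End (ZMod p) V := fun h => ((h : V ≃ₗ[ZMod p] V) : V →ₗ[ZMod p] V)
  have hρ : ∀ (h : H) (v : V), ρ h v = (h : V ≃ₗ[ZMod p] V) v := fun h v => rfl
  let E : Subring (Module.End (ZMod p) V) := Subring.centralizer (ρ '' (N : Set H))
  have hEmem : ∀ f : Module.End (ZMod p) V, f ∈ E ↔ ∀ n ∈ N, ρ n * f = f * ρ n := by
    intro f
    rw [Subring.mem_centralizer_iff]
    constructor
    · intro h n hn
      exact h (ρ n) ⟨n, hn, rfl⟩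
    · rintro h _ ⟨n, hn, rfl⟩
      exact h n hn
  have hcomm : ∀ f ∈ E, ∀ n ∈ N, ∀ v : V, ρ n (f v) = f (ρ n v) := by
    intro f hf n hn v
    have := congrArg (fun g : Module.End (ZMod p) V => g v) ((hEmem f).mp hf n hn)
    exact this
  have hschur : ∀ f ∈ E, f ≠ 0 → Function.Injective f := by
    intro f hf hf0
    have hW : ∀ n ∈ N, ∀ v ∈ LinearMap.ker f,
        ((n : H) : V ≃ₗ[ZMod p] V) v ∈ LinearMap.ker f := by
      intro n hn v hv
      rw [LinearMap.mem_ker] at hv ⊢
      rw [← hρ, ← hcomm f hf n hn v, hv, map_zero]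
    rcases Cfsg.Agent.S0687.irreducible_of_normal H hreg N hNn hNna (LinearMap.ker f) hW with h | h
    · exact LinearMap.ker_eq_bot.mp h
    · exact absurd (LinearMap.ker_eq_top.mp h) hf0
  have hfinEnd : Finite (Module.End (ZMod p) V) :=
    Finite.of_injective (fun f : Module.End (ZMod p) V => (f : V → V)) DFunLike.coe_injective
  have hfinE : Finite ↥E := inferInstance
  have hnz : NoZeroDivisors ↥E := by
    refine ⟨fun {a b} hab => ?_⟩
    by_cases ha : a = 0
    · exact Or.inl ha
    · right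
      have hinj := hschur a.1 a.2 (fun h => ha (Subtype.ext h))
      apply Subtype.ext
      ext v
      apply hinj
      have := congrArg (fun g : ↥E => g.1 v) hab
      simpa using this
  have hnt : Nontrivial ↥E := by
    refine ⟨⟨0, 1, fun h => ?_⟩⟩
    obtain ⟨v, hv⟩ := exists_ne (0 : V)
    have := congrArg (fun g : ↥E => g.1 v) h
    simp at this
    exact hv this.symm
  have hdom : IsDomain ↥E := NoZeroDivisors.to_isDomain _
  have hsmul : ∀ (a : ↥E) (v : V), a • v = a.1 v := fun a v => rfl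
  refine ⟨↥E, (Finite.isDomain_to_isField ↥E).toField, hfinE,
    (inferInstance : Module ↥E V), ?_, ?_⟩
  · intro n hn a v
    rw [hsmul, hsmul, ← hρ, ← hρ]
    exact hcomm a.1 a.2 n hn v
  · intro c hc
    have hcE : ρ c ∈ E := by
      rw [hEmem]
      intro n hn
      have h1 : (n : H) * c = c * n := (Subgroup.mem_centralizer_iff.mp hc) n hn
      ext v
      have := congrArg (fun g : H => (g : V ≃ₗ[ZMod p] V) v) h1
      exact this
    exact ⟨⟨ρ c, hcE⟩, fun v => rfl⟩

end Cfsg.Agent.Lib.Helper35.NF3
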