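import Cfsg.Agent.Lib.Helper77.NF3.Defs
import Cfsg.Agent.Lib.Helper25.FCZ.Res

/-!
# NF3 package [RES] (S0689)
-/

set_option autoImplicit false

namespace Cfsg.Agent.Lib.Helper35.NF3

open Cfsg.Agent.Lib.Helper77.NF3

universe u

/-- A linear automorphism as an automorphism of the multiplicative copy. -/
def linToMulAut {p : ℕ} {V : Type u} [AddCommGroup V] [Module (ZMod p) V] :
    (V ≃ₗ[ZMod p] V) →* MulAut (Multiplicative V) where
  toFun h := AddEquiv.toMultiplicative h.toAddEquiv
  map_one' := by
    ext x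
    rfl
  map_mul' := by
    intro a b
    ext x
    rfl

theorem linToMulAut_apply {p : ℕ} {V : Type u} [AddCommGroup V] [Module (ZMod p) V]
    (h : V ≃ₗ[ZMod p] V) (v : V) :
    linToMulAut h (Multiplicative.ofAdd v) = Multiplicative.ofAdd (h v) := rfl

theorem linToMulAut_injective {p : ℕ} {V : Type u} [AddCommGroup V] [Module (ZMod p) V] :
    Function.Injective (linToMulAut (p := p) (V := V)) := by
  intro a b hab
  ext v
  have := congrArg (fun φ => φ (Multiplicative.ofAdd v)) hab
  simp only [linToMulAut_apply] at this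
  exact Multiplicative.ofAdd.injective this

theorem pkgRes : PkgRes.{u} := by
  intro p _ V _ _ _ H hreg hns hHub
  have hfinL : Finite (V ≃ₗ[ZMod p] V) :=
    Finite.of_injective (fun e : V ≃ₗ[ZMod p] V => (e : V → V)) DFunLike.coe_injective
  obtain ⟨N, hNn, hNne, hNperf⟩ := Cfsg.Agent.Lib.Helper25.FCZ.pkgRes.{u} (G := H) hns
  refine ⟨N, hNn, ?_⟩
  let f : H →* MulAut (Multiplicative V) := linToMulAut.comp H.subtype
  have hf : Function.Injective f :=
    linToMulAut_injective.comp H.subtype_injective
  let e : N ≃* N.map f := N.equivMapOfInjective f hf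
  have h1 : ∀ φ ∈ N.map f, φ ≠ 1 → ∀ k : Multiplicative V, φ k = k → k = 1 := by
    rintro φ ⟨n, hn, rfl⟩ hne k hk
    by_contra hk1
    apply hne
    have hv : Multiplicative.toAdd k ≠ 0 := fun h0 => hk1 (by
      rw [← ofAdd_toAdd k, h0]; rfl)
    have hfix : ((n : H) : V ≃ₗ[ZMod p] V) (Multiplicative.toAdd k) = Multiplicative.toAdd k := by
      have := congrArg Multiplicative.toAdd hk
      exact this
    obtain ⟨h0, -, huniq⟩ := hreg _ _ hv hv
    have e1 : n = h0 := huniq n hfix
    have e2 : (1 : H) = h0 := huniq 1 rfl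
    rw [e1, ← e2, map_one]
  have h2 : commutator (N.map f) = ⊤ := by
    have hmap : (commutator N).map e.toMonoidHom = commutator (N.map f) := by
      rw [commutator_def, commutator_def, Subgroup.map_commutator,
        Subgroup.map_top_of_surjective _ e.surjective]
    rw [← hmap, hNperf, Subgroup.map_top_of_surjective _ e.surjective]
  have h3 : N.map f ≠ ⊥ := by
    intro hbot
    apply hNne
    rw [eq_bot_iff]
    intro n hn
    have : f n ∈ N.map f := Subgroup.mem_map_of_mem f hn
    rw [hbot, Subgroup.mem_bot] at this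
    rw [Subgroup.mem_bot]
    exact hf (by rw [this, map_one])
  obtain ⟨e'⟩ := hHub (Multiplicative V) (N.map f) h1 h2 h3
  exact ⟨e.trans e'⟩

end Cfsg.Agent.Lib.Helper35.NF3
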